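/-
The centraliser orders of all elements of a group of Janko-four type.
-/
import Cfsg.Agent.J4o.C62

set_option autoImplicit false
set_option maxRecDepth 100000
set_option linter.unusedSectionVars false

namespace CA.J4z

open CA.M24 CA.Fi CA.FG CA.J4 CA.J4o CA.J4.HM Cfsg Subgroup

noncomputable section

variable {G : Type*} [Group G] [Finite G]

theorem eq_of_sum {α β : Type*} {f : α → ℕ} {k : β → ℕ} {r : α → β → Prop} (hr : ∀ a b, r a b → k b ≤ f a) {l : List α}
    {m : List β} (h : l.Forall₂ r m) (e : (l.map f).sum ≤ (m.map k).sum) : ∀ a ∈ l, ∃ b ∈ m, r a b ∧ f a = k b := by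
  induction h with
  | nil => simp
  | @cons a b l m p q ih =>
    have s : (m.map k).sum ≤ (l.map f).sum := List.Forall₂.sum_le_sum (List.forall₂_map_left_iff.2
      (List.forall₂_map_right_iff.2 (q.flip.imp fun _ _ e => hr _ _ e)))
    have := hr a b p
    simp only [List.map_cons, List.sum_cons] at e
    exact List.forall_mem_cons.2 ⟨⟨b, List.mem_cons_self, p, by omega⟩, fun c hc =>
      (ih (by omega) c hc).imp fun _ d => ⟨List.mem_cons_of_mem _ d.1, d.2⟩⟩

def prs (D : List (ℕ × List ℕ)) : List (ℕ × ℕ) := D.flatMap fun d => d.2.map (d.1, ·)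

theorem join2 {D : List (ℕ × List ℕ)} (nd : (D.map Prod.fst).Nodup) (h : ∀ d ∈ D, CBK G d.1 d.2) :
    ∃ l : List G, l.Pairwise (fun a b => ¬ IsConj a b) ∧ (∀ g ∈ l, orderOf g ∈ D.map Prod.fst) ∧
      l.Forall₂ (fun g c => orderOf g = c.1 ∧ Nat.card 𝒞[g] ≤ c.2) (prs D) := by
  induction D with
  | nil => exact ⟨[], by simp [prs]⟩
  | cons d D ih =>
    rw [List.map_cons, List.nodup_cons] at nd
    obtain ⟨l, a, b, c⟩ := ih nd.2 fun e he => h e (List.mem_cons_of_mem _ he)
    obtain ⟨k, e, f⟩ := h d List.mem_cons_self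
    have o : ∀ g ∈ k, orderOf g = d.1 := fun g hg => by
      obtain ⟨i, hi, rfl⟩ := List.getElem_of_mem hg
      exact (List.forall₂_iff_get.1 f |>.2 i hi (f.length_eq ▸ hi)).1
    refine ⟨k ++ l, List.pairwise_append.2 ⟨e, a, fun x hx y hy i => nd.1 ?_⟩, fun g hg => ?_,
      List.rel_append (List.forall₂_map_right_iff.2 f) c⟩
    · obtain ⟨n, rfl⟩ := isConj_iff.1 i
      exact o x hx ▸ orderOf_conj x n ▸ b _ hy
    · exact List.mem_cons.2 ((List.mem_append.1 hg).imp (o g) (b g))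

theorem cen_exact {D : List (ℕ × List ℕ)} (nd : (D.map Prod.fst).Nodup) (h : ∀ d ∈ D, CBK G d.1 d.2) {N : ℕ}
    (hN : Nat.card G = N) (hs : N ≤ ((prs D).map (N / ·.2)).sum) (hd : ∀ c ∈ prs D, c.2 ∣ N) (y : G) :
    (orderOf y, Nat.card 𝒞[y]) ∈ prs D := by
  obtain ⟨l, a, -, b⟩ := join2 nd h
  have r : ∀ (g : G) (c : ℕ × ℕ), orderOf g = c.1 ∧ Nat.card 𝒞[g] ≤ c.2 → N / c.2 ≤ {y | IsConj g y}.ncard := fun g c e => by
    refine Nat.div_le_of_le_mul ?_
    rw [← hN, ← card_class g, mul_comm]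
    exact Nat.mul_le_mul_right _ e.2
  have c : N ≤ {y | ∃ g ∈ l, IsConj g y}.ncard := by
    rw [← sum_cls a]
    exact hs.trans (List.Forall₂.sum_le_sum (List.forall₂_map_left_iff.2 (List.forall₂_map_right_iff.2
      (b.flip.imp fun c g e => r g c e))))
  obtain ⟨g, e, f⟩ := (Set.eq_of_subset_of_ncard_le (Set.subset_univ {y | ∃ g ∈ l, IsConj g y})
    (by rwa [Set.ncard_univ, hN])).ge (Set.mem_univ y)
  obtain ⟨d, i, j, k⟩ := eq_of_sum r b (by
    rw [sum_cls a]
    exact ((Set.ncard_le_card _).trans hN.le).trans hs) g e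
  have m := card_class g
  have p : 0 < N := hN ▸ Nat.card_pos
  rw [k, hN] at m
  have := Nat.eq_of_mul_eq_mul_left (Nat.div_pos (Nat.le_of_dvd p (hd d i)) (Nat.pos_of_dvd_of_pos (hd d i) p))
    (m.trans (Nat.div_mul_cancel (hd d i)).symm)
  obtain ⟨n, rfl⟩ := isConj_iff.1 f
  rwa [card_cj f, orderOf_conj, this, j.1]

def D62 : List (ℕ × List ℕ) := [(1, [86775571046077562880]), (2, [21799895040, 1816657920]), (5, [6720]), (7, [840, 840]),
  (11, [31944, 242]), (35, [35, 35]), (4, [5406720, 98304, 43008]), (8, [1280, 768, 512]), (16, [32]), (3, [2661120]),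
  (6, [2661120, 2304, 2304]), (12, [192, 192, 48]), (24, [48, 48]), (10, [960, 80]), (20, [160, 160]), (40, [40, 40]), (15, [30]),
  (30, [30]), (14, [84, 84, 56, 56]), (28, [28, 28]), (21, [42, 42]), (42, [42, 42]), (22, [264, 22]), (44, [44]), (33, [66, 66]),
  (66, [66, 66]), (23, [23]), (29, [29]), (31, [31, 31, 31]), (37, [37, 37, 37]), (43, [43, 43, 43])]

/-- the order and the centraliser order of an arbitrary element -/
theorem cen_tab (X : HM G) [Fact X.Fu] (y : G) : (orderOf y, Nat.card 𝒞[y]) ∈ prs D62 := by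
  obtain ⟨a1, a2, a3, a4, a5, a6, a7⟩ := X.bkA
  obtain ⟨b1, b2, b3, b4, b5, b6, b7, b8, b9, b10, b11, b12, b13⟩ := X.bkB
  have := Fact.mk Nat.prime_two
  have c1 : CBK G 1 [86775571046077562880] := BK1 orderOf_one (Nat.le_of_dvd (by norm_num) (X.dvd_G _))
  have c2 : CBK G 2 [21799895040, 1816657920] := BK2 X.orderOf_z X.card_H.le
    (orderOf_eq_prime ((pow_two _).trans X.t_sq) X.t_ne) X.card_Ct.le X.not_conj_t
  have c3 : CBK G 5 [6720] := by
    obtain ⟨g, o⟩ := X.ex_ord Nat.prime_five (by norm_num)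
    exact BK1 o (cent_zpowers g ▸ (card_C5 (X := X) ((Nat.card_zpowers g).trans o)).le)
  have c4 : CBK G 7 [840, 840] := by
    obtain ⟨g, o⟩ := X.ex_ord (p := 7) (by norm_num) (by norm_num)
    exact X.bk_inv o (cent_zpowers g ▸ (card_C7 (X := X) ((Nat.card_zpowers g).trans o)).le) dvd_rfl
  have c5 : CBK G 11 [31944, 242] := by
    obtain ⟨x, O, h⟩ := X.exists_X11
    obtain ⟨w, U, -, k⟩ := X.exists_W11
    exact BK2 k.oz.ow k.cC.le h.oz.ow h.card_C.le fun e => by have := card_cj e; rw [k.cC, h.card_C] at this; omega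
  refine cen_exact (by decide) ?_ X.card_G (by decide +kernel) (by decide +kernel) y
  simp only [D62, List.forall_mem_cons, List.not_mem_nil, IsEmpty.forall_iff, implies_true, and_true]
  exact ⟨c1, c2, c3, c4, c5, X.bk35, a1, a2, a3, a4, a5, a6, a7, b1, b2, b3, b4, b5, b6, b7, b8, b9, b10, b11, b12, b13,
    X.bk_big (e := 22) (r := 1) (by decide) (by simp [RES]) (by norm_num),
    X.bk_big (e := 28) (r := 1) (by decide) (by simp [RES]) (by norm_num),
    X.bk_big (e := 10) (r := 3) (by decide) (by simp [RES]) (by norm_num),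
    X.bk_big (e := 12) (r := 3) (by decide) (by simp [RES]) (by norm_num),
    X.bk_big (e := 14) (r := 3) (by decide) (by simp [RES]) (by norm_num)⟩

theorem cen_mem (X : HM G) [Fact X.Fu] {y : G} {n : ℕ} {l : List ℕ} (o : orderOf y = n)
    (h : ∀ c ∈ prs D62, c.1 = n → c.2 ∈ l) : Nat.card 𝒞[y] ∈ l := h _ (cen_tab X y) o

end

end CA.J4z

theorem CA.J4z.realizeEqnsCl : True := by
  have := @CA.J4z.D62.eq_1
  have := @CA.J4z.D62.eq_def
  have := @CA.J4z.D62.congr_simp
  have := @CA.J4z.prs.eq_1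
  have := @CA.J4z.prs.eq_def
  have := @CA.J4z.prs.congr_simp
  trivial
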