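/-
General lemmas for explicit subgroups in the representation of degree 112.
-/
import Cfsg.Agent.J4x.GD
import Cfsg.Agent.J4z.Cl

set_option autoImplicit false
set_option maxRecDepth 100000
set_option linter.unusedSectionVars false

namespace CA.J4z

open CA.M24 CA.Fi CA.FG CA.BG CA.J4 CA.J4o CA.J4x CA.J4.HM Cfsg Subgroup

noncomputable section

variable {G : Type*} [Group G] [Finite G]

theorem cl_ind {s : Set G} {Q : G → Prop} (h1 : Q 1) (h : ∀ g ∈ s, ∀ x, Q x → Q (g * x)) {x : G} (hx : x ∈ closure s) : Q x := by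
  replace hx : x ∈ Submonoid.closure s := closure_toSubmonoid_of_finite (s := s) ▸ hx
  induction hx using Submonoid.closure_induction_left with
  | one => exact h1
  | mul_left g a y _ b => exact h g a y b

/-- a group normalising a set of pairs -/
theorem pair_fix {D α β ι : Type*} [Group D] [Finite D] {f : D → α → α} {k : D → β → β} (f1 : ∀ a, f 1 a = a)
    (fm : ∀ g h a, f (g * h) a = f g (f h a)) (k1 : ∀ a, k 1 a = a) (km : ∀ g h a, k (g * h) a = k g (k h a)) {x : ι → α}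
    {y : ι → β} (inj : Function.Injective y) {s : Set D} (h : ∀ d ∈ s, ∀ i, ∃ j, f d (x i) = x j ∧ k d (y i) = y j) {d : D}
    (hd : d ∈ closure s) (i : ι) (e : k d (y i) = y i) : f d (x i) = x i := by
  obtain ⟨j, a, b⟩ : ∃ j, f d (x i) = x j ∧ k d (y i) = y j := cl_ind (Q := fun d => ∃ j, f d (x i) = x j ∧ k d (y i) = y j)
    ⟨i, f1 _, k1 _⟩ (fun g hg d ⟨j, a, b⟩ => (h g hg j).imp fun _ c => by rwa [fm, km, a, b]) hd
  rw [a, inj (b.symm.trans e)]

theorem range_dvd {D P : Type*} [Group D] [Group P] (f : D →* G) (k : D →* P) {C : Subgroup G} (h : ∀ d, k d = 1 → f d ∈ C) :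
    Nat.card f.range ∣ Nat.card C * Nat.card k.range := by
  rw [← (k.ker.map f.rangeRestrict).card_mul_index, ← index_ker]
  refine Nat.mul_dvd_mul ?_ (index_map_dvd _ f.rangeRestrict_surjective)
  rw [← card_map_of_injective f.range.subtype_injective]
  exact card_dvd_of_le (by rintro _ ⟨_, ⟨d, a, rfl⟩, rfl⟩; exact h d a)

theorem range_iso {D P : Type*} [Group D] [Finite D] [Group P] (f : D →* G) (k : D →* P) (h : ∀ d, k d = 1 → d = 1)
    (e : Nat.card k.range ≤ Nat.card f.range) : Nonempty (f.range ≃* k.range) := by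
  have a := MonoidHom.ofInjective ((injective_iff_map_eq_one k).2 h)
  exact ⟨(MulEquiv.ofBijective _ (f.rangeRestrict_surjective.bijective_of_nat_card_le
    ((Nat.card_congr a.toEquiv).trans_le e))).symm.trans a⟩

/-- a criterion for a Sylow subgroup -/
theorem syl_of {p : ℕ} (hp : p.Prime) {T H : Subgroup G} {c : G} (hT : IsPGrp p T) (l : T ≤ H) (hc : c ∈ T)
    (h1 : ∀ x ∈ T, orderOf x = orderOf c → ∃ m ∈ T, m * x * m⁻¹ ∈ zpowers c) (h2 : 𝒩(zpowers c) ⊓ H ≤ T) : IsSylowOf p T H := by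
  refine IsSylowOf.of_norm_le (pHall_refl hT) hp l fun g hg => ?_
  obtain ⟨m, a, b⟩ := h1 _ (conj_mem_of_mem_norm hg.2 hc) (orderOf_conj ..)
  obtain ⟨j, e⟩ := mem_powers_iff_mem_zpowers.2 b
  refine (mul_mem_cancel_left a).1 (h2 ⟨mem_norm_zp (j := j) ?_, H.mul_mem (l a) hg.1⟩)
  rw [show c ^ j = _ from e]; group

variable {M : FR G} {K Z : Subgroup G}

theorem slp_ex {k : List ℕ → Bool} : ∀ {l : List (ℕ × ℕ)} {T : List ℕ}, slp k l T = true → (∀ A ∈ T, M.In K A) →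
    ∃ R, k R = true ∧ ∀ A ∈ R, M.In K A
  | [], T, e, h => ⟨T, e, h⟩
  | a :: l, T, e, h => by
    have h' : (force (getL T II a.1) fun x => force (getL T II a.2) fun y => force (mx x y) fun c =>
      slp k l (c :: T)) = true := e
    simp only [force_eq] at h'
    exact slp_ex h' (List.forall_mem_cons.2 ⟨(FR.in_getL h _).mul (FR.in_getL h _), h⟩)

theorem cl_list {s : Set G} {L : List ℕ} (h1 : II ∈ L) (h : ∀ g ∈ s, ∃ B, M.R g B ∧ ∀ A ∈ L, mx B A ∈ L) :
    (∀ x ∈ closure s, ∃ A ∈ L, M.R x A) ∧ Nat.card (closure s) ≤ L.length := by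
  have a : ∀ x ∈ closure s, ∃ A ∈ L, M.R x A := fun x => cl_ind (Q := fun x => ∃ A ∈ L, M.R x A) ⟨_, h1, FR.one⟩
    fun g hg x ⟨A, a, b⟩ => let ⟨B, c, d⟩ := h g hg; ⟨_, d A a, c.mul b⟩
  refine ⟨a, le_trans ?_ (List.toFinset_card_le L)⟩
  choose F b c using a
  rw [← Nat.card_eq_finsetCard]
  exact Nat.card_le_card_of_injective (fun g => ⟨F g.1 g.2, List.mem_toFinset.2 (b _ _)⟩) fun x y e =>
    Subtype.ext ((c _ _).eq (c _ _) (congrArg Subtype.val e))

/-- the stabiliser of a vector -/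
def fixS (M : FR G) (v : ℕ) : Subgroup G where
  carrier := {g | M.ρ g * toM v = toM v}
  one_mem' := by simp
  mul_mem' {a b} c d := by simp only [Set.mem_setOf_eq] at c d ⊢; rw [map_mul, mul_assoc, d, c]
  inv_mem' {a} c := by
    simp only [Set.mem_setOf_eq] at c ⊢
    conv_lhs => rw [← c, ← mul_assoc, ← map_mul, inv_mul_cancel, map_one, one_mul]

theorem mem_fixS {g : G} {A v : ℕ} (r : M.R g A) (h : mx A v = v) : g ∈ fixS M v := by
  show M.ρ g * toM v = toM v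
  rw [r, ← toM_mx, h]

/-- the cosets of a subgroup fixing a vector -/
theorem bfZ {v m n fin : ℕ} {T ks : List ℕ} {bs : List (List ℕ)} {l : List (List ℕ × ℕ)} (hZ : Z ≤ K) (hv : Z ≤ fixS M v)
    (nd : ndM (Nat.mod (c0 v) m :: keys l) 0 = true) (k : ∀ A ∈ ks, M.In K A)
    (h : walk (FR.stL ks) (okS (FR.fpV v) m T bs) fin l II = true) (hn : n ≤ Nat.card Z) (hK : Nat.card K ≤ (l.length + 1) * n) :
    Nat.card Z = n ∧ ∀ H : Subgroup G, Z ≤ H → (∀ A ∈ T, M.In H A) →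
      K ⊓ H = Z ∨ ∀ b ∈ bs, ∀ p : ℕ, p.Prime → ex b = p + 1 → p ∣ Nat.card H := by
  have h := (walk_spec (FR.stL_in k) h ⟨1, one_mem _, FR.one⟩).2
  have := cover hZ (fun w => M.ρ w * toM v) (fun w z hz => by rw [map_mul, mul_assoc, hv hz])
    (P := fun w => w = 1 ∨ ∃ S k, M.R w S ∧ tsts T S bs k = true) (ndM_spec nd).1
    (List.forall_mem_cons.2 ⟨⟨1, K.one_mem, ⟨v, by simp, rfl⟩, .inl rfl⟩, List.forall_mem_map.2 fun a ha => by
      obtain ⟨S, ⟨w, b, c⟩, d⟩ := h a ha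
      rw [okS, band_eq_true, beq_iff] at d
      exact ⟨w, b, ⟨_, by rw [c, ← toM_mx]; rfl, d.1⟩, .inr ⟨_, _, c, d.2⟩⟩⟩)
  rw [List.length_cons, keys, List.length_map] at this
  refine ⟨le_antisymm (Nat.le_of_mul_le_mul_left (this.1.trans hK) (Nat.succ_pos _)) hn, fun H ZH hT =>
    or_iff_not_imp_right.2 fun q => le_antisymm (fun x hx => ?_) (le_inf hZ ZH)⟩
  obtain ⟨w, a, b⟩ := this.2 (hK.trans (Nat.mul_le_mul_left _ hn)) x hx.1
  rcases a with rfl | ⟨S, j, c, d⟩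
  · simpa using b
  · exact absurd (fun _ hb p hp q => FR.dvd_of_tsts d ⟨w, by simpa using H.mul_mem hx.2 (H.inv_mem (ZH b)), c⟩ hT hp hb q) q

/-- the Burnside transfer against a large prime -/
theorem bf_big (X : HM G) [Fact X.Fu] {p q e : ℕ} (hp : p.Prime) (hq : (q, e) ∈ EP) (n : q ≠ p) {P H : Subgroup G} (s : IsSylowOf p P H)
    (h : H ⊓ 𝒩(P) ≤ 𝒞(P)) (d : q ∣ Nat.card H) : Nat.card P ∣ q * e := by
  have a : q ∈ BP := (by decide : ∀ a ∈ EP, a.1 ∈ BP) _ hq
  obtain ⟨R, b, c⟩ := bf hp (BP_spec q a).1 n s h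
  obtain ⟨Q, l, i⟩ := exists_le_card_eq_prime (BP_spec q a).1 d
  exact (card_NP (X := X) hq ((b.card_eq (syl_big (X := X) a i l)).trans i)).2.2.1 ▸ card_dvd_of_le c

end

end CA.J4z

theorem CA.J4z.realizeEqnsGen : True := by
  have := @CA.J4z.fixS.eq_1.{0}
  have := @CA.J4z.fixS.eq_def.{0}
  have := @CA.J4z.fixS.congr_simp.{0}
  trivial
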