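/-
The maximal subgroup of order 887040 of a group of Janko-four type.
-/
import Cfsg.Agent.J4z.Gen
import Cfsg.Agent.J4z.WM

set_option autoImplicit false
set_option maxRecDepth 100000
set_option linter.unusedSectionVars false
set_option Elab.async false

namespace CA.J4z

open CA.M24 CA.Fi CA.FG CA.BG CA.J4 CA.J4o CA.J4x CA.J4.HM Cfsg Subgroup Equiv
open scoped Pointwise

noncomputable section

def prChk (A c : ℕ) : Bool := allL (fun a => force (mx A a.2) fun B => force (mapp c a.1) fun m =>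
  anyL (fun b => band (Nat.beq b.1 m) (Nat.beq b.2 B)) L77) L77

theorem chkN : slp (outs oN) pN [MT, MY, MX] = true := by decide +kernel

theorem chk77 : (prChk Nx pX = true ∧ prChk Nf pF = true ∧ prChk Ng pG = true) ∧ allL (fun a => band (blt' a.1 16777216)
    (allL (fun b => bimp (Nat.beq (c0 a.2) (c0 b.2)) (band (Nat.beq a.1 b.1) (Nat.beq a.2 b.2))) L77)) L77 = true := by
  decide +kernel

theorem gen_P {H : Subgroup (Perm Pt)} (i : ∀ c ∈ [pX, pF, pG], InH H c) : DD ≤ H := by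
  refine DD_le_gen.trans (gen_le ?_)
  rw [(by decide +kernel : [ca, ct, cu] = [wA, wT, wC].map (evalW [pX, pF, pG]))]
  exact List.forall_mem_map.2 fun w _ => inH_evalW i w

theorem ref77 : refChk (L77.map Prod.fst) [([], 8388606), ([5279], 16777215)] 0 = true := by decide +kernel

variable {G : Type*} [Group G] [Finite G] {M : FR G}

theorem pr_step {g : G} {A c : ℕ} {p : Perm Pt} (r : M.R g A) (hc : code p = c) (h : prChk A c = true) (a : {a // a ∈ L77}) :
    ∃ b : {a // a ∈ L77}, p • unmask a.1.1 = unmask b.1.1 ∧ M.ρ g * toM a.1.2 = toM b.1.2 := by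
  have := allL_eq_true.1 h a.1 a.2
  simp only [force_eq, anyL_eq_true, band_eq_true, beq_iff] at this
  obtain ⟨b, hb, e, f⟩ := this
  refine ⟨⟨b, hb⟩, ?_, by rw [r, ← toM_mx, f]⟩
  rw [e, ← unmask_mask (p • _), ← mapp_code, hc,
    mask_unmask (blt'_eq_true.1 (band_eq_true.1 (allL_eq_true.1 chk77.2 a.1 a.2)).1)]

theorem ker_N {x f g : G} (rx : M.R x Nx) (rf : M.R f Nf) (rg : M.R g Ng) {a b c : Perm Pt} (ha : code a = pX) (hb : code b = pF)
    (hc : code c = pG) {d : G × Perm Pt} (hd : d ∈ closure {(x, a), (f, b), (g, c)}) (h : d.2 ∈ DD) (e : d.1 = 1) : d.2 = 1 := by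
  refine eq_one_of_refChk (DD_le h) (L77.map Prod.fst) (List.forall_mem_map.2 fun o ho => ?_) _ 0 (by simp) ref77
  refine pair_fix (ι := {a // a ∈ L77}) (f := fun d s => d.2 • s) (k := fun d v => M.ρ d.1 * v) (x := fun a => unmask a.1.1)
    (y := fun a => toM a.1.2) (by simp) (by simp [mul_smul]) (by simp) (by simp [mul_assoc]) (fun a b e => ?_) ?_ hd ⟨o, ho⟩
    (by simp [e])
  · have := bimp_eq_true.1 (allL_eq_true.1 (band_eq_true.1 (allL_eq_true.1 chk77.2 a.1 a.2)).2 b.1 b.2) (beq_iff.2 (c0_eq e))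
    simp only [band_eq_true, beq_iff] at this
    exact Subtype.ext (Prod.ext this.1 this.2)
  · rintro _ (rfl | rfl | rfl)
    exacts [pr_step rx ha chk77.1.1, pr_step rf hb chk77.1.2.1, pr_step rg hc chk77.1.2.2]

variable (X : HM G) [Fact X.Fu]
include X

theorem c242 {x w q : G} (ox : orderOf x = 11) (ow : orderOf w = 11) (oq : orderOf q = 3) (a : Commute x w) (b : Commute q w)
    (c : ¬ Commute q x) : Nat.card 𝒞[x] = 242 := by
  obtain ⟨w', u, U, k, l, -⟩ := exists_W1_le (X := X) (H := ⊤) (P := zpowers x ⊔ zpowers w)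
    (by rw [card_top, X.card_G]; norm_num) le_top (IsPiGrp.sup (pGrp_of_card_eq p11 ((Nat.card_zpowers x).trans ox))
      (pGrp_of_card_eq p11 ((Nat.card_zpowers w).trans ow))
      (.inl (zpowers_le.2 (cent_le_norm _ (cent_zpowers w ▸ mem_cent_iff.2 a)))))
  have e := k.zp (k.mem (l (le_sup_right (α := Subgroup G) (mem_zpowers w))) fun e => by
    have := oq ▸ e ▸ orderOf_dvd_card_of_mem (mem_cent_iff.2 b)
    omega) fun e => by simp [e] at ow
  refine k.c x (l (le_sup_left (α := Subgroup G) (mem_zpowers x))) fun h => c ?_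
  obtain ⟨n, rfl⟩ := mem_zpowers_iff.1 (e ▸ h)
  exact b.zpow_right n

theorem m22 [IsSimpleGroup G] (hb : ∀ A ∈ [MT, MY, MX], M.In ⊤ A) :
    ∃ M : Subgroup G, IsCoatom M ∧ Nonempty (↥M ≃* MulAut ↥Cfsg.Spor.M22) := by
  have i : ∀ A ∈ [Nx, Nf, Ng, Nu, Nw, Nq, Nj0, Nj1], M.In ⊤ A := FR.slp_spec chkN hb
  simp only [List.forall_mem_cons, List.not_mem_nil, IsEmpty.forall_iff, implies_true, and_true] at i
  obtain ⟨⟨x, -, rx⟩, ⟨f, -, rf⟩, ⟨g, -, rg⟩, ⟨u, -, ru⟩, ⟨w, -, rw'⟩, ⟨q, -, rq⟩, j0, j1⟩ := i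
  obtain ⟨a, ha, ea⟩ := inD_of_chk (c := pX) (by decide +kernel)
  obtain ⟨b, hb, eb⟩ := inD_of_chk (c := pF) (by decide +kernel)
  obtain ⟨c, hc, ec⟩ := inD_of_chk (c := pG) (by decide +kernel)
  let D : Subgroup (G × Perm Pt) := closure {(x, a), (f, b), (g, c)}
  let φ := (MonoidHom.fst G _).comp D.subtype
  let k := (MonoidHom.snd G _).comp D.subtype
  have m1 : (x, a) ∈ D := subset_closure (.inl rfl)
  have m2 : (f, b) ∈ D := subset_closure (.inr (.inl rfl))
  have m3 : (g, c) ∈ D := subset_closure (.inr (.inr rfl))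
  have hx : x ∈ φ.range := ⟨⟨_, m1⟩, rfl⟩
  have hf : f ∈ φ.range := ⟨⟨_, m2⟩, rfl⟩
  have lD : D ≤ comap (MonoidHom.snd G _) DD := (closure_le _).2 (by rintro _ (rfl | rfl | rfl); exacts [ha, hb, hc])
  have lv : D ≤ comap (MonoidHom.fst G _) (fixS M v0) := (closure_le _).2 (by
    rintro _ (rfl | rfl | rfl)
    exacts [mem_comap.2 (mem_fixS rx (by decide +kernel)), mem_comap.2 (mem_fixS rf (by decide +kernel)),
      mem_comap.2 (mem_fixS rg (by decide +kernel))])
  have ek : k.range = DD := le_antisymm (by rintro _ ⟨d, rfl⟩; exact lD d.2) (gen_P (List.forall_mem_cons.2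
    ⟨⟨a, ⟨⟨_, m1⟩, rfl⟩, ea⟩, List.forall_mem_cons.2 ⟨⟨b, ⟨⟨_, m2⟩, rfl⟩, eb⟩, List.forall_mem_singleton.2 ⟨c, ⟨⟨_, m3⟩, rfl⟩, ec⟩⟩⟩))
  have ker : ∀ d, φ d = 1 → k d = 1 := fun d e => ker_N rx rf rg ea eb ec d.2 (lD d.2) e
  have d1 := range_dvd k φ (C := ⊥) ker
  rw [card_bot, one_mul, ek, card_DD] at d1
  have i := FR.slp_spec (K := φ.range) (by decide +kernel : slp (outs uN) qN [Ng, Nf, Nx] = true) (List.forall_mem_cons.2
    ⟨⟨g, ⟨⟨_, m3⟩, rfl⟩, rg⟩, List.forall_mem_cons.2 ⟨⟨f, hf, rf⟩, List.forall_mem_singleton.2 ⟨x, hx, rx⟩⟩⟩)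
  simp only [uN, List.map_cons, List.forall_mem_cons] at i
  obtain ⟨⟨s, hs, rs⟩, ⟨r, hr, rr⟩, i⟩ := i
  have p7 : Nat.Prime 7 := by norm_num
  have ox := rx.ord p11 (l := [0, 0, 1]) rfl (by decide +kernel)
  have cx := (Nat.card_zpowers x).trans ox
  have cs := (Nat.card_zpowers s).trans (rs.ord p7 (l := [0, 0, 0]) rfl (by decide +kernel))
  have lE : closure {x, f} ≤ φ.range := (closure_le _).2 (by rintro _ (rfl | rfl); exacts [hx, hf])
  have lS : closure {s, r} ≤ φ.range := (closure_le _).2 (by rintro _ (rfl | rfl); exacts [hs, hr])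
  have z1 : ∀ a b : G, zpowers a ≤ closure {a, b} := fun a b => zpowers_le.2 (subset_closure (.inl rfl))
  have z2 : ∀ (a b : G) (n : ℕ), b ^ n ∈ closure {a, b} := fun a b n => pow_mem (subset_closure (.inr rfl)) n
  obtain ⟨eE, bE⟩ := bfZ (K := 𝒩(zpowers x)) (Z := closure {x, f}) (n := 110) ((closure_le _).2 (by
      rintro _ (rfl | rfl)
      exacts [le_normalizer (mem_zpowers _), mem_norm_zp ((rf.mul rx).eq ((rx.pwS 6).mul rf) (by decide +kernel))]))
    ((closure_le _).2 (by rintro _ (rfl | rfl); exacts [mem_fixS rx (by decide +kernel), mem_fixS rf (by decide +kernel)]))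
    (by decide +kernel) (FR.norm_in (l := kE) rx (by decide +kernel) (List.forall_mem_cons.2 ⟨⟨u, trivial, ru⟩,
      List.forall_mem_singleton.2 ⟨w, trivial, rw'⟩⟩)) cE
    (Nat.le_of_dvd Nat.card_pos ((by norm_num : Nat.Coprime 11 10).mul_dvd_of_dvd_of_dvd (cx ▸ card_dvd_of_le (z1 x f))
      ((by norm_num : Nat.Coprime 5 2).mul_dvd_of_dvd_of_dvd
        ((rf.pwS 2).ord Nat.prime_five (l := [0, 1]) rfl (by decide +kernel) ▸ orderOf_dvd_card_of_mem (z2 x f 2))
        ((rf.pwS 5).ord Nat.prime_two (l := [1]) rfl (by decide +kernel) ▸ orderOf_dvd_card_of_mem (z2 x f 5))))) (by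
      have a := Nat.le_of_dvd (by decide) (relIndex_cent_dvd_pred p11 cx le_rfl)
      have b := c242 X ox (rw'.ord p11 (l := [0, 0, 1]) rfl (by decide +kernel))
        (rq.ord Nat.prime_three (l := [0, 0]) rfl (by decide +kernel)) ((rx.mul rw').eq (rw'.mul rx) (by decide +kernel))
        ((rq.mul rw').eq (rw'.mul rq) (by decide +kernel))
        fun m => absurd (c0_eq ((rq.mul rx).symm.trans (m.eq ▸ rx.mul rq))) (by decide +kernel)
      rw [← card_mul_relIndex (cent_le_norm _), cent_zpowers, show wE.length = 21 by decide +kernel, b]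
      exact (Nat.mul_le_mul_left _ (cent_zpowers x ▸ a)).trans (by decide))
  obtain ⟨eS, bS⟩ := bfZ (K := 𝒩(zpowers s)) (Z := closure {s, r}) (n := 42) ((closure_le _).2 (by
      rintro _ (rfl | rfl)
      · exact le_normalizer (mem_zpowers _)
      · obtain ⟨y, m, n⟩ := FR.norm_in (l := [Nr]) rs (by decide +kernel) (List.forall_mem_singleton.2 ⟨_, trivial, rr⟩) _
          List.mem_cons_self
        exact rr.eq n rfl ▸ m))
    ((closure_le _).2 (by rintro _ (rfl | rfl); exacts [mem_fixS rs (by decide +kernel), mem_fixS rr (by decide +kernel)]))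
    (by decide +kernel) (FR.norm_in (l := kS) rs (by decide +kernel) (List.forall_mem_cons.2 ⟨j0, List.forall_mem_singleton.2 j1⟩))
    cS (Nat.le_of_dvd Nat.card_pos ((by norm_num : Nat.Coprime 7 6).mul_dvd_of_dvd_of_dvd (cs ▸ card_dvd_of_le (z1 s r))
      ((by norm_num : Nat.Coprime 3 2).mul_dvd_of_dvd_of_dvd
        ((rr.pwS 2).ord Nat.prime_three (l := [0, 0]) rfl (by decide +kernel) ▸ orderOf_dvd_card_of_mem (z2 s r 2))
        ((rr.pwS 3).ord Nat.prime_two (l := [1]) rfl (by decide +kernel) ▸ orderOf_dvd_card_of_mem (z2 s r 3)))))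
    (by rw [card_N7 (X := X) cs, show wS.length = 59 by decide +kernel])
  have main : ∀ H, φ.range ≤ H → Nat.card H = 887040 ∨ Nat.card H = 86775571046077562880 := fun H l => by
    have t : ∀ A ∈ TN, M.In H A := fun A hA => (i A hA).imp fun _ e => ⟨l e.1, e.2⟩
    have := sieve (f := fun n => bimp (dv 887040 n) (bimp (bigOK n) (bimp (ok11 n) (bimp (bor (band (dv 29 n) (dv 43 n))
      (band (cg n 110 11) (bor (cg n 42 7) (dv 43 n)))) (memL n [887040, 86775571046077562880, 43387785523038781440])))))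
      (by decide +kernel) (X.dvd_G H)
    simp only [bimp_eq_true, bor_eq_true, band_eq_true, dv_iff, memL_eq_true, List.mem_cons, List.not_mem_nil,
      or_false, two X H] at this
    exact this (d1.trans (card_dvd_of_le l)) (bigOK_H X H) (ok11_H X H) ((bE H (lE.trans l) t).symm.imp
      (fun e => ⟨e b29 List.mem_cons_self 29 (by norm_num) rfl,
        e b43 (List.mem_cons_of_mem _ List.mem_cons_self) 43 (by norm_num) rfl⟩)
      fun e => ⟨cg_of (by norm_num) (sylow_count p11 (IsSylowOf.of_norm_le (sylow_of_sq p11 cx (z1 x f) (by rw [eE]; norm_num)) p11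
        (lE.trans l) (by rw [inf_comm, e]))) (by rw [e, eE]), (bS H (lS.trans l) t).imp (fun e => cg_of (by norm_num)
          (sylow_count p7 (sylow_of_sq p7 cs (zpowers_le.2 (l hs)) fun e => X.not_49 (e.trans (card_subgroup_dvd_card H))))
          (by rw [e, eS]))
        fun e => e b43 List.mem_cons_self 43 (by norm_num) rfl⟩)
  have cU := (main _ le_rfl).resolve_right fun e => by
    obtain ⟨d, rfl⟩ := (eq_top_of_card_eq _ (e.trans X.card_G.symm)).ge (mem_top u)
    exact absurd (c0_eq ((toM_mx Nu v0).trans (ru ▸ show M.ρ (φ d) * toM v0 = toM v0 from mem_comap.1 (lv d.2)))) (by decide +kernel)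
  obtain ⟨e⟩ := range_iso k φ (fun d e => Subtype.ext (Prod.ext e (ker d e))) (by rw [cU, ek, card_DD])
  exact ⟨φ.range, coatom_of (by rw [cU, X.card_G]; norm_num) fun H l => by rw [cU, X.card_G]; exact main H l,
    ⟨e.symm.trans ((MulEquiv.subgroupCongr ek).trans autM22)⟩⟩

end

end CA.J4z

theorem CA.J4z.realizeEqnsM22 : True := by
  have := @CA.J4z.prChk.eq_1
  have := @CA.J4z.prChk.eq_def
  have := @CA.J4z.prChk.congr_simp
  trivial
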