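/-
The maximal subgroup of order 6048 of a group of Janko-four type.
-/
import Cfsg.Agent.J4z.Gen
import Cfsg.Agent.J4z.WU
import Cfsg.Agent.S1057

set_option autoImplicit false
set_option maxRecDepth 100000
set_option linter.unusedSectionVars false
set_option Elab.async false

namespace CA.J4z

open CA.M24 CA.Fi CA.FG CA.BG CA.J4 CA.J4o CA.J4x CA.J4.HM Cfsg Subgroup Cfsg.Agent.S1057 Cfsg.Agent.Lin

noncomputable section

def tm (R : List ℕ) (i : ℕ) : ℕ := getL R II (getL iI 0 i)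

def invChk (R : List ℕ) : Bool := band (allR (fun i => force (tm R i) fun A => force (tm R (Nat.mod (getL piA 0 i) 63)) fun B =>
  force (tm R (Nat.mod (getL piC 0 i) 63)) fun C => band (Nat.beq (mx Ua A) (mx B Ua)) (Nat.beq (mx Uc A) (mx C Uc))) 63)
  (band (Nat.beq Ua (tm R 5)) (force (tm R 0) fun A => force (tm R 1) fun B => force (mx A B) fun C => force (tm R 3) fun D =>
    Nat.beq Uc (mx C D)))

def tChk (Q R : List ℕ) : Bool := band (band (memL II R) (memL Uw R)) (band (Nat.beq R.length 32) (allL (fun A =>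
  force (mx Uc A) fun C => force (mx Uu A) fun D => band (band (memL C R) (memL D R)) (force (mx A A) fun B => force (mx B B) fun E =>
    band (Nat.beq (mx E E) II) (bor (Nat.beq E II) (bor (memL A Q) (force (mx D Uu) fun F => memL F Q))))) R))

theorem okC : Ok (mat cP) := by decide +kernel

theorem conjP : ∀ y : Fin 63, su _ (ok1 5) * su _ (ok1 y) = su _ (ok1 (Fin.ofNat 63 (getL piA 0 y))) * su _ (ok1 5) ∧
    su _ okC * su _ (ok1 y) = su _ (ok1 (Fin.ofNat 63 (getL piC 0 y))) * su _ okC := by decide +kernel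

theorem chkU : slp (outs oU) pU [MT, MY, MX] = true := by decide +kernel
theorem chkI : slp invChk pI [Ua, Uc] = true := by decide +kernel
theorem chkT : slp (fun Q => slp (tChk Q) pT (Uu :: Q)) pC [Uc, II] = true := by decide +kernel

theorem card_P : Nat.card (SU 3 F9 3) = 6048 ∧ center (SU 3 F9 3) = ⊥ := by
  have h9 : Fintype.card F9 = 3 ^ 2 := card_F9
  have hq := Cfsg.Agent.Unit.fq_frobStar h9
  letI := Cfsg.Agent.Unit.frobStar h9
  have hc := hq.card_SU (n := 3) (by norm_num)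
  refine ⟨?_, eq_bot_of_card_eq _ ((hq.card_center_SU (n := 3) (by norm_num)).trans (by norm_num))⟩
  norm_num [Finset.prod_range_succ] at hc
  omega

variable {G : Type*} [Group G] [Finite G] {M : FR G}

theorem ker_U {P : Type*} [Group P] [Finite P] {a c : G} (ra : M.R a Ua) (rc : M.R c Uc) {b e : P} {t' : Fin 63 → P}
    (inj : Function.Injective t') (hP : ∀ y : Fin 63, b * t' y = t' (Fin.ofNat 63 (getL piA 0 y)) * b ∧
      e * t' y = t' (Fin.ofNat 63 (getL piC 0 y)) * e) {d : G × P} (hd : d ∈ closure {(a, b), (c, e)}) (e : d.2 = 1) :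
    Commute d.1 a ∧ Commute d.1 c := by
  obtain ⟨R, h, i⟩ := slp_ex (K := ⊤) chkI (List.forall_mem_cons.2 ⟨⟨a, trivial, ra⟩, List.forall_mem_singleton.2 ⟨c, trivial, rc⟩⟩)
  choose t _ r using fun y : Fin 63 => show M.In ⊤ (tm R y) from FR.in_getL i _
  simp only [invChk, band_eq_true, allR_eq_true, force_eq, beq_iff] at h
  have k : ∀ y, Commute d.1 (t y) := fun y => mul_inv_eq_iff_eq_mul.1 (pair_fix (f := fun d t => d.1 * t * d.1⁻¹)
    (k := fun d t => d.2 * t * d.2⁻¹) (by simp) (by simp [mul_assoc]) (by simp) (by simp [mul_assoc]) inj (by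
      rintro _ (rfl | rfl) y
      · exact ⟨_, mul_inv_eq_of_eq_mul ((ra.mul (r y)).eq ((r (Fin.ofNat 63 (getL piA 0 y))).mul ra) (h.1 y y.2).1),
          mul_inv_eq_of_eq_mul (hP y).1⟩
      · exact ⟨_, mul_inv_eq_of_eq_mul ((rc.mul (r y)).eq ((r (Fin.ofNat 63 (getL piC 0 y))).mul rc) (h.1 y y.2).2),
          mul_inv_eq_of_eq_mul (hP y).2⟩)
    hd y (by simp [e]))
  exact ⟨ra.eq (r 5) h.2.1 ▸ k 5, rc.eq (((r 0).mul (r 1)).mul (r 3)) h.2.2 ▸ ((k 0).mul_right (k 1)).mul_right (k 3)⟩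

theorem syl_T {c u w : G} (rc : M.R c Uc) (ru : M.R u Uu) (rw' : M.R w Uw) (oc : orderOf c = 8) {H : Subgroup G} (hc : c ∈ H)
    (hu : u ∈ H) (h : 𝒩(zpowers c) ⊓ H = closure {c, w}) : ¬ 64 ∣ Nat.card H := by
  have mc : c ∈ closure {c, u} := subset_closure (by simp)
  have mu : u ∈ closure {c, u} := subset_closure (by simp)
  obtain ⟨Q, a, i⟩ := slp_ex (K := zpowers c) chkT (List.forall_mem_cons.2 ⟨⟨c, mem_zpowers c, rc⟩,
    List.forall_mem_singleton.2 ⟨1, one_mem _, FR.one⟩⟩)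
  obtain ⟨R, b, j⟩ := slp_ex (K := closure {c, u}) a (List.forall_mem_cons.2 ⟨⟨u, mu, ru⟩, fun A hA =>
    (i A hA).imp fun _ e => ⟨zpowers_le.2 mc e.1, e.2⟩⟩)
  simp only [tChk, band_eq_true, bor_eq_true, allL_eq_true, force_eq, beq_iff, memL_eq_true] at b
  obtain ⟨e, f⟩ := cl_list (M := M) (s := {c, u}) b.1.1 (by
    rintro _ (rfl | rfl)
    · exact ⟨_, rc, fun A hA => (b.2.2 A hA).1.1⟩
    · exact ⟨_, ru, fun A hA => (b.2.2 A hA).1.2⟩)
  have s := syl_of Nat.prime_two (pGrp_of_forall_pow Nat.prime_two (k := 3) fun x hx => by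
      obtain ⟨A, k, r⟩ := e x hx
      have := (r.mul r).mul (r.mul r)
      rw [← (this.mul this).eq FR.one (b.2.2 A k).2.1]
      simp only [pow_succ, pow_zero, one_mul, pow_mul, mul_assoc])
    ((closure_le H).2 (by rintro _ (rfl | rfl); exacts [hc, hu])) mc (fun x hx o => by
      obtain ⟨A, k, r⟩ := e x hx
      rcases (b.2.2 A k).2.2 with l | l | l
      · have := orderOf_dvd_of_pow_eq_one (show x ^ 4 = 1 by
          rw [← ((r.mul r).mul (r.mul r)).eq FR.one l]; simp only [pow_succ, pow_zero, one_mul, mul_assoc])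
        rw [o, oc] at this
        omega
      · obtain ⟨y, m, n⟩ := i A l
        exact ⟨1, one_mem _, by simpa [r.eq n rfl] using m⟩
      · obtain ⟨y, m, n⟩ := i _ l
        exact ⟨u, mu, by rwa [inv_eq_of_mul_eq_one_right ((ru.mul ru).eq FR.one (by decide +kernel)),
          ((ru.mul r).mul ru).eq n rfl]⟩)
    (h.le.trans ((closure_le _).2 (by
      rintro _ (rfl | rfl)
      · exact mc
      · obtain ⟨y, m, n⟩ := j _ b.1.2
        exact rw'.eq n rfl ▸ m)))
  intro d
  obtain ⟨L, l, n⟩ := exists_le_card_eq_pow Nat.prime_two (k := 6) d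
  have := Nat.le_of_dvd Nat.card_pos (s.card_dvd (pGrp_of_card_eq_pow Nat.prime_two n) l)
  omega

variable (X : HM G) [Fact X.Fu]
include X

theorem no407 (H : Subgroup G) : Nat.card H ≠ 2461536 := fun e => by
  obtain ⟨y, hy, o⟩ := exists_mem_orderOf_eq (H := H) p11 (by rw [e]; norm_num)
  have c := (Nat.card_zpowers y).trans o
  have s := sylow_of_sq p11 c (zpowers_le.2 hy) (by rw [e]; norm_num)
  have a := relIndex_cent_dvd_pred p11 c (inf_le_left : 𝒩(zpowers y) ⊓ H ≤ _)
  have b := card_inf_mul_relIndex 𝒞(zpowers y) (𝒩(zpowers y) ⊓ H)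
  have d : Nat.card 𝒞(zpowers y) ∣ 31944 := cent_zpowers y ▸ (by decide : ∀ n ∈ [31944, 242], n ∣ 31944) _
    (cen_mem X o (by decide +kernel))
  have f := sieve (f := fun d => bimp (dv d 319440) (bimp (cg 2461536 d 11) (Nat.beq d 33))) (by decide +kernel)
    (X.dvd_G (𝒩(zpowers y) ⊓ H))
  simp only [bimp_eq_true, beq_iff, dv_iff] at f
  rw [f (b ▸ Nat.mul_dvd_mul ((card_dvd_of_le inf_le_left).trans d) a) (e ▸ cg_of (by norm_num) (sylow_count p11 s) rfl)] at b
  have := bf_big X p11 (q := 37) (e := 12) (by decide) (by norm_num) s (inf_comm H _ ▸ relIndex_eq_one.1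
    (Nat.eq_one_of_dvd_coprimes (by norm_num : Nat.Coprime 10 33) a (Dvd.intro_left _ b))) (by rw [e]; norm_num)
  rw [c] at this
  omega

theorem no17501 (H : Subgroup G) : Nat.card H ≠ 105846048 := fun e => by
  obtain ⟨P, l, c⟩ := exists_le_card_eq_prime (H := H) (p := 43) (by norm_num) (by rw [e]; norm_num)
  obtain ⟨a, b, -⟩ := card_NP (X := X) (e := 14) (by decide) c
  have d := (card_NPH (X := X) (e := 14) (by decide) c l).1
  rw [e] at d
  have := bf_big X (by norm_num) (q := 37) (e := 12) (by decide) (by norm_num) (syl_big (X := X) a c l)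
    (by rw [b, inf_comm, ← eq_of_le_of_card_ge (le_inf le_normalizer l) (d.trans c.symm).le]) (by rw [e]; norm_num)
  rw [c] at this
  omega

theorem u33 [IsSimpleGroup G] (hb : ∀ A ∈ [MT, MY, MX], M.In ⊤ A) : ∃ M : Subgroup G, IsCoatom M ∧
    ∃ (F : Type) (_ : Field F) (_ : Fintype F), Fintype.card F = 9 ∧ Nonempty (↥M ≃* Cfsg.PSU 3 F 3) := by
  have i : ∀ A ∈ [Uc, Ua, Uk0, Uk1, Uj0, Uj1], M.In ⊤ A := FR.slp_spec chkU hb
  simp only [List.forall_mem_cons, List.not_mem_nil, IsEmpty.forall_iff, implies_true, and_true] at i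
  obtain ⟨⟨c, -, rc⟩, ⟨a, -, ra⟩, k0, k1, j0, j1⟩ := i
  let D : Subgroup (G × SU 3 F9 3) := closure {(a, su _ (ok1 5)), (c, su _ okC)}
  let f := (MonoidHom.fst G _).comp D.subtype
  let k := (MonoidHom.snd G _).comp D.subtype
  have ha : a ∈ f.range := ⟨⟨_, subset_closure (.inl rfl)⟩, rfl⟩
  have hc : c ∈ f.range := ⟨⟨_, subset_closure (.inr rfl)⟩, rfl⟩
  have ker : ∀ d, k d = 1 → ∀ x ∈ f.range, f d ∈ 𝒞[x] := fun d e => by
    rintro _ ⟨x, rfl⟩
    have l : D ≤ comap (MonoidHom.fst G _) 𝒞[f d] := (closure_le _).2 (by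
      rintro _ (rfl | rfl)
      exacts [mem_cent_iff.2 (ker_U ra rc h3 conjP d.2 e).1.symm, mem_cent_iff.2 (ker_U ra rc h3 conjP d.2 e).2.symm])
    exact mem_cent_singleton_comm.1 (l x.2)
  have i := in_tab (u := uU) (q := qU) (by decide +kernel) rc ra hc ha
  simp only [uU, List.map_cons, List.forall_mem_cons] at i
  obtain ⟨⟨s, hs, rs⟩, ⟨r, hr, rr⟩, ⟨w, hw, rw'⟩, ⟨u, hu, ru⟩, i⟩ := i
  have p7 : Nat.Prime 7 := by norm_num
  have oc : orderOf c = 8 := orderOf_eq_prime_pow (p := 2) (n := 2) ((rc.pwS 4).ne (by decide +kernel))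
    ((rc.pwS 8).eq FR.one (by decide +kernel))
  have cs := (Nat.card_zpowers s).trans (rs.ord p7 (l := [0, 0, 0]) rfl (by decide +kernel))
  have cc := (Nat.card_zpowers c).trans oc
  have l8 : closure {c, w} ≤ f.range := (closure_le _).2 (by rintro _ (rfl | rfl); exacts [hc, hw])
  have l7 : closure {s, r} ≤ f.range := (closure_le _).2 (by rintro _ (rfl | rfl); exacts [hs, hr])
  obtain ⟨c8, b8⟩ := bfZ (K := 𝒩(zpowers c)) (Z := closure {c, w}) (n := 16) ((closure_le _).2 (by
      rintro _ (rfl | rfl)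
      exacts [le_normalizer (mem_zpowers _), mem_norm_zp ((rw'.mul rc).eq ((rc.pwS 5).mul rw') (by decide +kernel))]))
    ((closure_le _).2 (by rintro _ (rfl | rfl); exacts [mem_fixS rc (by decide +kernel), mem_fixS rw' (by decide +kernel)]))
    (by decide +kernel) (FR.norm_in (l := k8) rc (by decide +kernel) (List.forall_mem_cons.2 ⟨k0, List.forall_mem_cons.2
      ⟨k1, List.forall_mem_singleton.2 ⟨c, trivial, rc⟩⟩⟩)) c8 (by
      have l : zpowers c ≤ closure {c, w} := zpowers_le.2 (subset_closure (.inl rfl))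
      have a := card_lt_of_lt (lt_of_le_of_ne l fun e => by
        obtain ⟨j, n⟩ := mem_zpowers_iff.1 (e.ge (subset_closure (.inr rfl)))
        have m : w * c = c * w := n ▸ (Commute.zpow_self c j).eq
        exact absurd (c0_eq ((rw'.mul rc).symm.trans (m ▸ rc.mul rw'))) (by decide +kernel))
      have b := card_dvd_of_le l
      rw [cc] at a b
      omega) (by
      have a := Nat.le_of_dvd (by decide) (cc ▸ relIndex_cent_dvd_totient (H := zpowers c) inferInstance le_rfl)
      have b := (by decide : ∀ n ∈ [1280, 768, 512], n ≤ 1280) _ (cen_mem X oc (by decide +kernel))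
      rw [← card_mul_relIndex (cent_le_norm _), cent_zpowers, show w8.length = 319 by decide +kernel]
      exact (Nat.mul_le_mul b (cent_zpowers c ▸ a)).trans (by decide))
  obtain ⟨c7, b7⟩ := bfZ (K := 𝒩(zpowers s)) (Z := closure {s, r}) (n := 21) ((closure_le _).2 (by
      rintro _ (rfl | rfl)
      · exact le_normalizer (mem_zpowers _)
      · obtain ⟨y, m, n⟩ := FR.norm_in (l := [Ur]) rs (by decide +kernel) (List.forall_mem_singleton.2 ⟨_, trivial, rr⟩) _
          List.mem_cons_self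
        exact rr.eq n rfl ▸ m))
    ((closure_le _).2 (by rintro _ (rfl | rfl); exacts [mem_fixS rs (by decide +kernel), mem_fixS rr (by decide +kernel)]))
    (by decide +kernel) (FR.norm_in (l := k7) rs (by decide +kernel) (List.forall_mem_cons.2 ⟨j0, List.forall_mem_singleton.2 j1⟩))
    c7 (Nat.le_of_dvd Nat.card_pos ((by norm_num : Nat.Coprime 7 3).mul_dvd_of_dvd_of_dvd
      (cs ▸ card_dvd_of_le (zpowers_le.2 (subset_closure (.inl rfl))))
      (rr.ord Nat.prime_three (l := [0, 0]) rfl (by decide +kernel) ▸ orderOf_dvd_card_of_mem (subset_closure (.inr rfl)))))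
    (by rw [card_N7 (X := X) cs, show w7.length = 119 by decide +kernel])
  have t : ∀ H, f.range ≤ H → ∀ A ∈ TU, M.In H A := fun H l A hA => (i A hA).imp fun _ e => ⟨l e.1, e.2⟩
  have g7 : ∀ H, f.range ≤ H → 𝒩(zpowers s) ⊓ H = closure {s, r} → cg (Nat.card H) 21 7 = true := fun H l e =>
    cg_of (by norm_num) (sylow_count p7 (sylow_of_sq p7 cs (zpowers_le.2 (l hs)) fun e =>
      X.not_49 (e.trans (card_subgroup_dvd_card H)))) (e ▸ c7)
  have dk : Nat.card k.range ∣ 6048 := card_P.1 ▸ card_subgroup_dvd_card _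
  have d1 := (range_dvd f k fun d e => ker d e s hs).trans (Nat.mul_dvd_mul (cent_zpowers s ▸ card_C7 (X := X) cs).dvd dk)
  have e8 := (b8 _ l8 (t _ le_rfl)).resolve_right fun e =>
    absurd ((e b29 List.mem_cons_self 29 (by norm_num) rfl).trans d1) (by norm_num)
  have e7 := (b7 _ l7 (t _ le_rfl)).resolve_right fun e =>
    absurd ((e b23 List.mem_cons_self 23 (by norm_num) rfl).trans d1) (by norm_num)
  have ker1 : ∀ d, k d = 1 → f d = 1 := fun d e => orderOf_eq_one_iff.1 (Nat.eq_one_of_dvd_coprimes (by norm_num : Nat.Coprime 16 21)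
    (c8 ▸ orderOf_dvd_card_of_mem (e8.le ⟨cent_le_norm _ (cent_zpowers c ▸ ker d e c hc), d, rfl⟩))
    (c7 ▸ orderOf_dvd_card_of_mem (e7.le ⟨cent_le_norm _ (cent_zpowers s ▸ ker d e s hs), d, rfl⟩)))
  have d2 := range_dvd f k (C := ⊥) ker1
  rw [card_bot, one_mul] at d2
  have cU := sieve (f := fun n => bimp (dv n 6048) (bimp (dv 16 n) (bimp (cg n 21 7) (Nat.beq n 6048)))) (by decide +kernel)
    (X.dvd_G f.range)
  simp only [bimp_eq_true, beq_iff, dv_iff] at cU
  replace cU := cU (d2.trans dk) (c8 ▸ card_dvd_of_le l8) (g7 _ le_rfl e7)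
  obtain ⟨e⟩ := range_iso f k (fun d e => Subtype.ext (Prod.ext (ker1 d e) e)) (cU ▸ Nat.le_of_dvd (by norm_num) dk)
  refine ⟨f.range, coatom_of (by rw [cU, X.card_G]; norm_num) fun H l => ?_, F9, inferInstance, inferInstance, card_F9,
    ⟨e.trans ((MulEquiv.subgroupCongr (eq_top_of_card_eq _ (Nat.dvd_antisymm (card_subgroup_dvd_card _)
      (card_P.1.trans cU.symm ▸ d2)))).trans (topEquiv.trans (quotCenterOfEqBot card_P.2).symm))⟩⟩
  have := sieve (f := fun n => bimp (dv 6048 n) (bimp (bigOK n) (bimp (ok11 n) (bimp (bor (band (dv 29 n) (dv 43 n))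
    (band (bnot (dv 64 n)) (bor (cg n 21 7) (dv 23 n)))) (memL n [6048, 86775571046077562880, 2461536, 105846048,
      43387785523038781440]))))) (by decide +kernel) (X.dvd_G H)
  simp only [bimp_eq_true, bor_eq_true, band_eq_true, bnot_eq_true, dv_iff, memL_eq_true, List.mem_cons, List.not_mem_nil,
    or_false, no407 X H, no17501 X H, two X H] at this
  rw [cU, X.card_G]
  exact this (cU ▸ card_dvd_of_le l) (bigOK_H X H) (ok11_H X H) ((b8 H (l8.trans l) (t H l)).symm.imp
    (fun e => ⟨e b29 List.mem_cons_self 29 (by norm_num) rfl, e b43 (List.mem_cons_of_mem _ List.mem_cons_self) 43 (by norm_num) rfl⟩)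
    fun e => ⟨syl_T rc ru rw' oc (l hc) (l hu) e, (b7 H (l7.trans l) (t H l)).imp (g7 H l)
      fun e => e b23 List.mem_cons_self 23 (by norm_num) rfl⟩)

end

end CA.J4z

theorem CA.J4z.realizeEqnsU33 : True := by
  have := @CA.J4z.invChk.eq_1
  have := @CA.J4z.invChk.eq_def
  have := @CA.J4z.invChk.congr_simp
  have := @CA.J4z.tm.eq_1
  have := @CA.J4z.tm.eq_def
  have := @CA.J4z.tm.congr_simp
  have := @CA.J4z.tChk.eq_1
  have := @CA.J4z.tChk.eq_def
  have := @CA.J4z.tChk.congr_simp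
  trivial
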